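import Cfsg.Agent.H20.External
import Mathlib.GroupTheory.Schreier
import Mathlib.GroupTheory.NoncommPiCoprod
import Mathlib.GroupTheory.PGroup
import Mathlib.Data.Nat.Factorization.Basic

/-! Counting lemmas for coprime actions: a `p`-group is no larger than the product of fixed-point subgroups. -/

set_option autoImplicit false

namespace Cfsg.Agent.H62.DB

universe u

variable {A : Type u} [Group A]

theorem card_le_prod_of_iSup {P : Type*} [Group P] [Finite P] (hc : ∀ x y : P, Commute x y)
    {ι : Type*} [Fintype ι] (H : ι → Subgroup P) (h : ⨆ i, H i = ⊤) :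
    Nat.card P ≤ ∏ i, Nat.card (H i) := by
  classical
  have hcomm : Pairwise fun i j => ∀ (x : H i) (y : H j),
      Commute ((H i).subtype x) ((H j).subtype y) := fun i j _ x y => hc _ _
  have hr : (MonoidHom.noncommPiCoprod (fun i => (H i).subtype) hcomm).range = ⊤ := by
    rw [MonoidHom.noncommPiCoprod_range]
    simpa using h
  calc Nat.card P ≤ Nat.card (∀ i, H i) :=
        Nat.card_le_card_of_surjective _ (MonoidHom.range_eq_top.mp hr)
    _ = ∏ i, Nat.card (H i) := Nat.card_pi

/-- An abelian group generated by a set of elements of order at most `m`. -/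
theorem card_le_pow_of_closure {P : Type*} [Group P] [Finite P] (hc : ∀ x y : P, Commute x y)
    (L : Set P) (hL : Subgroup.closure L = ⊤) {m : ℕ} (hm : ∀ x ∈ L, orderOf x ≤ m) :
    Nat.card P ≤ m ^ Nat.card L := by
  classical
  have : Fintype L := Fintype.ofFinite L
  refine (card_le_prod_of_iSup hc (fun l : L => Subgroup.zpowers (l : P)) ?_).trans ?_
  · rw [eq_top_iff, ← hL, Subgroup.closure_le]
    intro x hx
    exact Subgroup.mem_iSup_of_mem (⟨x, hx⟩ : L) (Subgroup.mem_zpowers x)
  · calc ∏ l : L, Nat.card (Subgroup.zpowers (l : P)) ≤ ∏ _l : L, m :=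
          Finset.prod_le_prod' fun l _ => by rw [Nat.card_zpowers]; exact hm l l.2
      _ = m ^ Nat.card L := by
          rw [Finset.prod_const, Finset.card_univ, Nat.card_eq_fintype_card]

/-- Fixed points of a pair. -/
def fix2 {P : Type*} [Group P] (φ : A →* MulAut P) (a b : A) : Subgroup P :=
  MonoidHom.eqLocus (φ a).toMonoidHom (MonoidHom.id P) ⊓
    MonoidHom.eqLocus (φ b).toMonoidHom (MonoidHom.id P)

theorem mem_fix2 {P : Type*} [Group P] {φ : A →* MulAut P} {a b : A} {x : P} :
    x ∈ fix2 φ a b ↔ φ a x = x ∧ φ b x = x := Iff.rfl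

theorem fix2_closure {P : Type*} [Group P] {φ : A →* MulAut P} {a b : A} {x : P}
    (h : x ∈ fix2 φ a b) {c : A} (hc : c ∈ Subgroup.closure ({a, b} : Set A)) : φ c x = x := by
  induction hc using Subgroup.closure_induction with
  | mem y hy =>
      rcases hy with rfl | rfl
      · exact h.1
      · exact h.2
  | one => simp
  | mul y z _ _ hy hz => rw [map_mul, MulAut.mul_apply, hz, hy]
  | inv y _ hy =>
      rw [map_inv, MulAut.inv_def, MulEquiv.symm_apply_eq]
      exact hy.symm

/-- The pairs spanning subgroups of rank two. -/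
abbrev Pair (A : Type u) [Group A] := {ab : A × A // ab.1 ≠ 1 ∧ ab.2 ∉ Subgroup.zpowers ab.1}

theorem noncyclic_quotient {q : ℕ} (hq : q.Prime) [Finite A] (hA : Nat.card A = q ^ 3)
    (he : ∀ a : A, a ^ q = 1) {a : A} (ha : a ≠ 1) [(Subgroup.zpowers a).Normal] :
    ¬ IsCyclic (A ⧸ Subgroup.zpowers a) := by
  intro h
  have : Fact q.Prime := ⟨hq⟩
  obtain ⟨g, hg⟩ := IsCyclic.exists_generator (α := A ⧸ Subgroup.zpowers a)
  have hord : orderOf g = Nat.card (A ⧸ Subgroup.zpowers a) := orderOf_eq_card_of_forall_mem_zpowers hg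
  have hdiv : orderOf g ∣ q := by
    obtain ⟨x, rfl⟩ := QuotientGroup.mk_surjective g
    exact orderOf_dvd_of_pow_eq_one (by rw [← QuotientGroup.mk_pow, he x, QuotientGroup.mk_one])
  have hcard := Subgroup.card_eq_card_quotient_mul_card_subgroup (Subgroup.zpowers a)
  rw [Nat.card_zpowers, orderOf_eq_prime (he a) ha, hA] at hcard
  rw [hord] at hdiv
  have h1 := Nat.le_of_dvd hq.pos hdiv
  have h2 : q ^ 3 ≤ q * q := hcard ▸ Nat.mul_le_mul_right q h1
  nlinarith [hq.two_le]

/-- An invariant subgroup is generated by its elements fixed by two independent operators. -/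
theorem le_closure_fixed {G : Type*} [Group G] [Finite A] [Finite G] (φ : A →* MulAut G) {q : ℕ}
    (hq : q.Prime) (hA : Nat.card A = q ^ 3) (hcomm : ∀ a b : A, a * b = b * a)
    (he : ∀ a : A, a ^ q = 1) (hcop : (Nat.card A).Coprime (Nat.card G))
    {W : Subgroup G} (hW : ∀ a, ∀ x ∈ W, φ a x ∈ W) :
    W ≤ Subgroup.closure {y | y ∈ W ∧ ∃ i : Pair A, y ∈ fix2 φ i.1.1 i.1.2} := by
  have : IsMulCommutative A := IsMulCommutative.of_comm hcomm
  have hnc : ¬ IsCyclic A := by
    intro h
    obtain ⟨g, hg⟩ := IsCyclic.exists_generator (α := A)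
    have h1 := orderOf_eq_card_of_forall_mem_zpowers hg
    have h2 := Nat.le_of_dvd hq.pos (orderOf_dvd_of_pow_eq_one (he g))
    rw [h1, hA] at h2
    exact absurd h2 (not_le.mpr (lt_self_pow₀ hq.one_lt (by norm_num)))
  set S := {y | y ∈ W ∧ ∃ i : Pair A, y ∈ fix2 φ i.1.1 i.1.2}
  let e : A → W ≃* W := fun a =>
    { toFun := fun x => ⟨φ a x, hW a x x.2⟩
      invFun := fun x => ⟨φ a⁻¹ x, hW a⁻¹ x x.2⟩
      left_inv := fun x => Subtype.ext (by simp [map_inv, MulAut.inv_def])
      right_inv := fun x => Subtype.ext (by simp [map_inv, MulAut.inv_def])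
      map_mul' := fun x y => Subtype.ext (map_mul (φ a) _ _) }
  let ψ : A →* MulAut W :=
    { toFun := e
      map_one' := MulEquiv.ext fun x => Subtype.ext (by simp [e])
      map_mul' := fun a b => MulEquiv.ext fun x => Subtype.ext (by simp [e, MulAut.mul_apply]) }
  suffices h : (Subgroup.closure S).subgroupOf W = ⊤ from Subgroup.subgroupOf_eq_top.mp h
  refine Cfsg.Agent.H20.External.eq_top_of_fixedPoints_le ψ hnc
    (hcop.coprime_dvd_right (Subgroup.card_subgroup_dvd_card W)) fun a ha k hk => ?_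
  -- the fixed points of `a` in `W`, acted on by `A ⧸ ⟨a⟩`
  set V : Subgroup W := MonoidHom.eqLocus (ψ a).toMonoidHom (MonoidHom.id W) with hV
  have hVinv : ∀ b, ∀ x ∈ V, ψ b x ∈ V := fun b x hx => by
    change ψ a (ψ b x) = ψ b x
    rw [← MulAut.mul_apply, ← map_mul, hcomm, map_mul, MulAut.mul_apply]
    exact congrArg (ψ b) hx
  let e' : A → V ≃* V := fun b =>
    { toFun := fun x => ⟨ψ b x, hVinv b x x.2⟩
      invFun := fun x => ⟨ψ b⁻¹ x, hVinv b⁻¹ x x.2⟩
      left_inv := fun x => Subtype.ext (by simp [map_inv, MulAut.inv_def])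
      right_inv := fun x => Subtype.ext (by simp [map_inv, MulAut.inv_def])
      map_mul' := fun x y => Subtype.ext (map_mul (ψ b) _ _) }
  let χ : A →* MulAut V :=
    { toFun := e'
      map_one' := MulEquiv.ext fun x => Subtype.ext (by simp [e'])
      map_mul' := fun b c => MulEquiv.ext fun x => Subtype.ext (by simp [e', MulAut.mul_apply]) }
  have hn : (Subgroup.zpowers a).Normal :=
    ⟨fun x hx g => by rwa [hcomm g x, mul_inv_cancel_right]⟩
  have hker : Subgroup.zpowers a ≤ χ.ker := Subgroup.zpowers_le.mpr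
    (MulEquiv.ext fun x => Subtype.ext x.2)
  have : IsMulCommutative (A ⧸ Subgroup.zpowers a) := IsMulCommutative.of_comm fun x y => by
    obtain ⟨x, rfl⟩ := QuotientGroup.mk_surjective x
    obtain ⟨y, rfl⟩ := QuotientGroup.mk_surjective y
    rw [← QuotientGroup.mk_mul, ← QuotientGroup.mk_mul, hcomm]
  have hle : ((Subgroup.closure S).subgroupOf W).subgroupOf V = ⊤ := by
    refine Cfsg.Agent.H20.External.eq_top_of_fixedPoints_le
      (QuotientGroup.lift (Subgroup.zpowers a) χ hker) (noncyclic_quotient hq hA he ha) ?_ ?_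
    · refine (hcop.coprime_dvd_right ?_).coprime_dvd_left ?_
      · exact (Subgroup.card_subgroup_dvd_card V).trans (Subgroup.card_subgroup_dvd_card W)
      · exact Subgroup.card_quotient_dvd_card _
    · intro c hc x hx
      obtain ⟨b, rfl⟩ := QuotientGroup.mk_surjective c
      have hb : b ∉ Subgroup.zpowers a := fun h => hc ((QuotientGroup.eq_one_iff b).mpr h)
      have hxa : φ a ((x : W) : G) = ((x : W) : G) := congrArg Subtype.val x.2
      have hxb : φ b ((x : W) : G) = ((x : W) : G) :=
        congrArg (fun y : V => ((y : W) : G)) hx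
      exact Subgroup.subset_closure ⟨(x : W).2, ⟨(a, b), ha, hb⟩, hxa, hxb⟩
  have hkV : k ∈ V := hk
  exact Subgroup.mem_subgroupOf.mp
    (hle.symm ▸ Subgroup.mem_top _ : (⟨k, hkV⟩ : V) ∈ ((Subgroup.closure S).subgroupOf W).subgroupOf V)

theorem restrict_exists {G : Type*} [Group G] (φ : A →* MulAut G) {W : Subgroup G}
    (hW : ∀ a, ∀ x ∈ W, φ a x ∈ W) :
    ∃ ψ : A →* MulAut W, ∀ a (x : W), ((ψ a x : W) : G) = φ a x := by
  let e : A → W ≃* W := fun a =>
    { toFun := fun x => ⟨φ a x, hW a x x.2⟩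
      invFun := fun x => ⟨φ a⁻¹ x, hW a⁻¹ x x.2⟩
      left_inv := fun x => Subtype.ext (by simp [map_inv, MulAut.inv_def])
      right_inv := fun x => Subtype.ext (by simp [map_inv, MulAut.inv_def])
      map_mul' := fun x y => Subtype.ext (map_mul (φ a) _ _) }
  exact ⟨{ toFun := e
           map_one' := MulEquiv.ext fun x => Subtype.ext (by simp [e])
           map_mul' := fun a b => MulEquiv.ext fun x => Subtype.ext (by simp [e, MulAut.mul_apply]) },
    fun _ _ => rfl⟩

theorem quotient_exists {G : Type*} [Group G] (φ : A →* MulAut G) {N : Subgroup G} [N.Normal]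
    (hN : ∀ a, ∀ x ∈ N, φ a x ∈ N) :
    ∃ ψ : A →* MulAut (G ⧸ N), ∀ a (x : G), ψ a (x : G ⧸ N) = ((φ a x : G) : G ⧸ N) := by
  let f : A → (G ⧸ N →* G ⧸ N) := fun a =>
    QuotientGroup.map N N (φ a).toMonoidHom fun x hx => hN a x hx
  have hf : ∀ a b, (f a).comp (f b) = f (a * b) := fun a b => by
    refine QuotientGroup.monoidHom_ext _ (MonoidHom.ext fun x => ?_)
    simp [f, MulAut.mul_apply]
  have hf1 : f 1 = MonoidHom.id _ := by
    refine QuotientGroup.monoidHom_ext _ (MonoidHom.ext fun x => ?_)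
    simp [f]
  let e : A → G ⧸ N ≃* G ⧸ N := fun a =>
    MonoidHom.toMulEquiv (f a) (f a⁻¹) (by rw [hf, inv_mul_cancel, hf1])
      (by rw [hf, mul_inv_cancel, hf1])
  exact ⟨{ toFun := e
           map_one' := MulEquiv.ext fun x => DFunLike.congr_fun hf1 x
           map_mul' := fun a b => MulEquiv.ext fun x => (DFunLike.congr_fun (hf a b) x).symm },
    fun _ _ => rfl⟩

/-- Fixed points of a pair in an invariant quotient lift. -/
theorem exists_fix2_lift [Finite A] (hcomm : ∀ a b : A, a * b = b * a) {G : Type*} [Group G]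
    [Finite G] (φ : A →* MulAut G) (hcop : (Nat.card A).Coprime (Nat.card G)) {N : Subgroup G}
    (hN : ∀ a, ∀ x ∈ N, φ a x ∈ N) {a b : A} {k : G} (ha : k⁻¹ * φ a k ∈ N)
    (hb : k⁻¹ * φ b k ∈ N) : ∃ c ∈ fix2 φ a b, k⁻¹ * c ∈ N := by
  set B := Subgroup.closure ({a, b} : Set A)
  have hsol : Group.IsSolvable B := Group.isSolvable_of_comm fun x y => Subtype.ext (hcomm _ _)
  obtain ⟨c, hc, hfix⟩ := Cfsg.Agent.H20.External.exists_fixed_mem_coset (φ.comp B.subtype)
    (hcop.coprime_dvd_left (Subgroup.card_subgroup_dvd_card B)) (Or.inl hsol) N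
    (fun x n hn => hN x n hn) (k := k) (by
      rintro ⟨x, hx⟩
      change k⁻¹ * φ x k ∈ N
      induction hx using Subgroup.closure_induction with
      | mem y hy =>
          rcases hy with rfl | rfl
          · exact ha
          · exact hb
      | one => simp
      | mul y z _ _ hy hz =>
          have := mul_mem hy (hN y _ hz)
          simpa [map_mul, map_inv, mul_assoc] using this
      | inv y _ hy =>
          have := inv_mem (hN y⁻¹ _ hy)
          simpa [map_mul, map_inv, MulAut.inv_def, mul_assoc] using this)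
  exact ⟨c, ⟨hfix ⟨a, Subgroup.subset_closure (Or.inl rfl)⟩,
    hfix ⟨b, Subgroup.subset_closure (Or.inr rfl)⟩⟩, hc⟩

/-- A coprime `p`-group is no larger than the product of the fixed-point subgroups of rank two. -/
theorem pGroup_card_le [Finite A] [Fintype (Pair A)] {q : ℕ} (hq : q.Prime)
    (hA : Nat.card A = q ^ 3) (hcomm : ∀ a b : A, a * b = b * a) (he : ∀ a : A, a ^ q = 1)
    {p : ℕ} [Fact p.Prime] :
    ∀ (P : Type u) [Group P] [Finite P] (φ : A →* MulAut P), IsPGroup p P →
      (Nat.card A).Coprime (Nat.card P) →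
      Nat.card P ≤ ∏ i : Pair A, Nat.card (fix2 φ i.1.1 i.1.2) := by
  intro P _ _
  induction hn : Nat.card P using Nat.strong_induction_on generalizing P with
  | _ n ih =>
    intro φ hP hcop
    subst hn
    by_cases hc : ∀ x y : P, Commute x y
    · refine card_le_prod_of_iSup hc _ ?_
      rw [eq_top_iff]
      refine (le_closure_fixed φ hq hA hcomm he hcop (W := ⊤) fun _ _ _ => Subgroup.mem_top _).trans ?_
      rw [Subgroup.closure_le]
      rintro y ⟨-, i, hi⟩
      exact Subgroup.mem_iSup_of_mem i hi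
    · have hnt : Nontrivial P := by
        by_contra h
        rw [not_nontrivial_iff_subsingleton] at h
        exact hc fun x y => Subsingleton.elim _ _
      set Z := Subgroup.center P with hZ
      have hZnt : Nontrivial Z := hP.center_nontrivial
      have hZinv : ∀ a, ∀ x ∈ Z, φ a x ∈ Z := fun a x hx => by
        rw [hZ, Subgroup.mem_center_iff] at hx ⊢
        intro g
        obtain ⟨g, rfl⟩ := (φ a).surjective g
        rw [← map_mul, ← map_mul, hx g]
      obtain ⟨φQ, hφQ⟩ := quotient_exists φ hZinv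
      obtain ⟨φZ, hφZ⟩ := restrict_exists φ hZinv
      have hPZ := Subgroup.card_eq_card_quotient_mul_card_subgroup Z
      have hlt : Nat.card (P ⧸ Z) < Nat.card P := by
        rw [hPZ]
        exact lt_mul_of_one_lt_right Nat.card_pos Finite.one_lt_card
      have h1 := ih _ hlt (P ⧸ Z) rfl φQ (hP.to_quotient Z)
        (hcop.coprime_dvd_right (Subgroup.card_quotient_dvd_card Z))
      have h2 : Nat.card Z ≤ ∏ i : Pair A, Nat.card (fix2 φZ i.1.1 i.1.2) := by
        refine card_le_prod_of_iSup (fun x y => Subtype.ext (Subgroup.mem_center_iff.mp y.2 x)) _ ?_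
        rw [eq_top_iff]
        refine (le_closure_fixed φZ hq hA hcomm he
          (hcop.coprime_dvd_right (Subgroup.card_subgroup_dvd_card Z)) (W := ⊤)
          fun _ _ _ => Subgroup.mem_top _).trans ?_
        rw [Subgroup.closure_le]
        rintro y ⟨-, i, hi⟩
        exact Subgroup.mem_iSup_of_mem i hi
      calc Nat.card P = Nat.card (P ⧸ Z) * Nat.card Z := hPZ
        _ ≤ _ := Nat.mul_le_mul h1 h2
        _ = ∏ i : Pair A, Nat.card (fix2 φQ i.1.1 i.1.2) * Nat.card (fix2 φZ i.1.1 i.1.2) :=
            Finset.prod_mul_distrib.symm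
        _ ≤ _ := Finset.prod_le_prod' fun i _ => ?_
      set F := fix2 φ i.1.1 i.1.2 with hF
      set π : F →* P ⧸ Z := (QuotientGroup.mk' Z).comp F.subtype
      have hk := Subgroup.card_mul_index π.ker
      rw [Subgroup.index_ker, mul_comm] at hk
      rw [← hk]
      refine Nat.mul_le_mul (Nat.card_mono (Set.toFinite _) ?_) ?_
      · intro y hy
        obtain ⟨k, rfl⟩ := QuotientGroup.mk_surjective y
        obtain ⟨hy1, hy2⟩ := hy
        replace hy1 := (hφQ _ k).symm.trans hy1
        replace hy2 := (hφQ _ k).symm.trans hy2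
        obtain ⟨c, hcF, hcN⟩ := exists_fix2_lift hcomm φ hcop hZinv
          (QuotientGroup.eq.mp hy1.symm) (QuotientGroup.eq.mp hy2.symm)
        exact ⟨⟨c, hcF⟩, (QuotientGroup.eq.mpr hcN).symm⟩
      · refine Nat.card_le_card_of_injective (fun x => (⟨⟨((x : Z) : P), ?_⟩, ?_⟩ : π.ker)) ?_
        · exact ⟨(hφZ _ _).symm.trans (congrArg Subtype.val x.2.1),
            (hφZ _ _).symm.trans (congrArg Subtype.val x.2.2)⟩
        · exact (QuotientGroup.eq_one_iff _).mpr (x : Z).2
        · intro x y h
          exact Subtype.ext (Subtype.ext (congrArg (fun z : π.ker => ((z : F) : P)) h))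

/-- A finite group all of whose Sylow subgroups have order at most `M`. -/
theorem card_le_of_sylow (G : Type*) [Group G] [Finite G] (M : ℕ)
    (h : ∀ (p : ℕ) [Fact p.Prime], ∃ P : Sylow p G, Nat.card P ≤ M) :
    Nat.card G ≤ (M + 1) ^ (M + 1) := by
  have hne : Nat.card G ≠ 0 := Nat.card_pos.ne'
  have hb : ∀ p ∈ (Nat.card G).primeFactors, p ^ (Nat.card G).factorization p ≤ M := fun p hp => by
    have : Fact p.Prime := ⟨Nat.prime_of_mem_primeFactors hp⟩
    obtain ⟨P, hP⟩ := h p
    exact P.card_eq_multiplicity ▸ hP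
  conv_lhs => rw [← Nat.prod_factorization_pow_eq_self hne]
  rw [Finsupp.prod, Nat.support_factorization]
  calc _ ≤ (M + 1) ^ (Nat.card G).primeFactors.card :=
        Finset.prod_le_pow_card _ _ _ fun p hp => (hb p hp).trans (Nat.le_succ M)
    _ ≤ (M + 1) ^ (M + 1) := by
        refine Nat.pow_le_pow_right (Nat.succ_pos M) ?_
        refine (Finset.card_le_card (t := Finset.range (M + 1)) fun p hp => ?_).trans_eq
          (Finset.card_range _)
        rw [Finset.mem_range, Nat.lt_succ_iff]
        refine le_trans ?_ (hb p hp)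
        exact Nat.le_self_pow ((Nat.Prime.factorization_pos_of_dvd
          (Nat.prime_of_mem_primeFactors hp) hne (Nat.dvd_of_mem_primeFactors hp)).ne') p

end Cfsg.Agent.H62.DB
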