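import Cfsg.Agent.H62.DerivedBound.Count

/-! Bounding the derived subgroup from the derived subgroups of fixed points of a rank-three coprime action. -/

set_option autoImplicit false

open scoped commutatorElement

namespace Cfsg.Agent.H62.DB

universe u

variable {A : Type u} [Group A]

theorem pairs_meet [Finite A] {q : ℕ} (hq : q.Prime) (hA : Nat.card A = q ^ 3)
    (he : ∀ a : A, a ^ q = 1) (i j : Pair A) :
    ∃ c : A, c ≠ 1 ∧ c ∈ Subgroup.closure ({i.1.1, i.1.2} : Set A) ∧
      c ∈ Subgroup.closure ({j.1.1, j.1.2} : Set A) := by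
  have : Fact q.Prime := ⟨hq⟩
  have hbig : ∀ k : Pair A, q * q ≤ Nat.card (Subgroup.closure ({k.1.1, k.1.2} : Set A)) := by
    intro k
    have hlt : Subgroup.zpowers k.1.1 < Subgroup.closure ({k.1.1, k.1.2} : Set A) := by
      refine lt_of_le_not_ge (Subgroup.zpowers_le.mpr (Subgroup.subset_closure (Or.inl rfl))) fun h => ?_
      exact k.2.2 (h (Subgroup.subset_closure (Or.inr rfl)))
    obtain ⟨r, -, hr⟩ := (Nat.dvd_prime_pow hq).mp
      (hA ▸ Subgroup.card_subgroup_dvd_card (Subgroup.closure ({k.1.1, k.1.2} : Set A)))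
    have hlt' : q < q ^ r := by
      rw [← hr]
      refine lt_of_le_of_ne ?_ fun h => hlt.ne (Subgroup.eq_of_le_of_card_ge hlt.le ?_)
      · calc q = Nat.card (Subgroup.zpowers k.1.1) := by
              rw [Nat.card_zpowers, orderOf_eq_prime (he _) k.2.1]
          _ ≤ _ := Nat.card_mono (Set.toFinite _) hlt.le
      · rw [Nat.card_zpowers, orderOf_eq_prime (he _) k.2.1, h]
    have hr2 : 2 ≤ r := by
      by_contra hcon
      have : q ^ r ≤ q ^ 1 := Nat.pow_le_pow_right hq.pos (by omega)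
      rw [pow_one] at this
      omega
    rw [hr, ← pow_two]
    exact Nat.pow_le_pow_right hq.pos hr2
  set B := Subgroup.closure ({i.1.1, i.1.2} : Set A)
  set C := Subgroup.closure ({j.1.1, j.1.2} : Set A)
  by_contra hcon
  have hinj : Function.Injective (fun x : B × C => ((x.1 : A) * x.2)) := by
    rintro ⟨⟨x, hx⟩, ⟨y, hy⟩⟩ ⟨⟨x', hx'⟩, ⟨y', hy'⟩⟩ h
    have h' : x'⁻¹ * x = y' * y⁻¹ := by
      have h : x * y = x' * y' := h
      rw [eq_mul_inv_iff_mul_eq, mul_assoc, h, inv_mul_cancel_left]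
    have h1 : x'⁻¹ * x = 1 := by
      by_contra hne
      exact hcon ⟨_, hne, mul_mem (inv_mem hx') hx, h' ▸ mul_mem hy' (inv_mem hy)⟩
    rw [h1] at h'
    obtain rfl : x' = x := inv_mul_eq_one.mp h1
    obtain rfl : y' = y := mul_inv_eq_one.mp h'.symm
    rfl
  have h := Nat.card_le_card_of_injective _ hinj
  rw [Nat.card_prod, hA] at h
  have := (Nat.mul_le_mul (hbig i) (hbig j)).trans h
  nlinarith [Nat.pow_pos (n := 3) hq.pos, hq.two_le]

/-- Number of possible images of the fixed elements in the automisers. -/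
def imageBound (q m : ℕ) : ℕ := (q ^ 3 * m + 1) ^ (q ^ 3 * m)

/-- Bound on a Sylow subgroup of the automiser. -/
def sylowBound (q m : ℕ) : ℕ := (imageBound q m) ^ (q ^ 6)

/-- Bound on the automiser. -/
def autoBound (q m : ℕ) : ℕ := (sylowBound q m + 1) ^ (sylowBound q m + 1)

/-- The final bound. -/
def finalBound (q m : ℕ) : ℕ :=
  (autoBound q m) ^ (autoBound q m * (autoBound q m * autoBound q m) + 1) * (m + 1) ^ (q ^ 3 * m)

theorem card_commutatorSet_le {K : Type*} [Group K] [Finite K] :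
    Nat.card (commutatorSet K) ≤ (Subgroup.center K).index * (Subgroup.center K).index := by
  rw [Subgroup.index_eq_card, ← Nat.card_prod]
  refine Nat.card_le_card_of_surjective
    (fun p : (K ⧸ Subgroup.center K) × (K ⧸ Subgroup.center K) =>
      (⟨⁅p.1.out, p.2.out⁆, p.1.out, p.2.out, rfl⟩ : commutatorSet K)) ?_
  rintro ⟨_, a, b, rfl⟩
  refine ⟨(a, b), Subtype.ext ?_⟩
  obtain ⟨z, hz, hz'⟩ : ∃ z ∈ Subgroup.center K, (a : K ⧸ Subgroup.center K).out = a * z := by
    obtain ⟨z, hz⟩ := QuotientGroup.mk_out_eq_mul (Subgroup.center K) a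
    exact ⟨z, z.2, hz⟩
  obtain ⟨w, hw, hw'⟩ : ∃ w ∈ Subgroup.center K, (b : K ⧸ Subgroup.center K).out = b * w := by
    obtain ⟨w, hw⟩ := QuotientGroup.mk_out_eq_mul (Subgroup.center K) b
    exact ⟨w, w.2, hw⟩
  change ⁅(a : K ⧸ Subgroup.center K).out, (b : K ⧸ Subgroup.center K).out⁆ = ⁅a, b⁆
  rw [hz', hw', commutatorElement_def, commutatorElement_def]
  have cz := fun g : K => Subgroup.mem_center_iff.mp hz g
  have cw := fun g : K => Subgroup.mem_center_iff.mp hw g
  calc a * z * (b * w) * (a * z)⁻¹ * (b * w)⁻¹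
      = a * (z * (b * w) * z⁻¹) * a⁻¹ * w⁻¹ * b⁻¹ := by group
    _ = a * (b * w) * a⁻¹ * w⁻¹ * b⁻¹ := by rw [← cz (b * w), mul_inv_cancel_right]
    _ = a * b * (w * a⁻¹ * w⁻¹) * b⁻¹ := by group
    _ = a * b * a⁻¹ * b⁻¹ := by rw [← cw a⁻¹, mul_inv_cancel_right]

theorem derived_card_le [Finite A] {q m : ℕ} (hq : q.Prime) (hA : Nat.card A = q ^ 3)
    (hcomm : ∀ a b : A, a * b = b * a) (he : ∀ a : A, a ^ q = 1)
    (G : Type u) [Group G] [Finite G] (φ : A →* MulAut G) (hcop : (Nat.card A).Coprime (Nat.card G))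
    (F : A → Subgroup G) (hF : ∀ a x, x ∈ F a ↔ φ a x = x)
    (hm : ∀ a, a ≠ 1 → Nat.card ↥⁅F a, F a⁆ ≤ m) :
    Nat.card (commutator G) ≤ finalBound q m := by
  classical
  have : Fintype (Pair A) := Fintype.ofFinite _
  have hFinv : ∀ a b, ∀ x ∈ F a, φ b x ∈ F a := fun a b x hx => by
    rw [hF] at hx ⊢
    rw [← MulAut.mul_apply, ← map_mul, hcomm, map_mul, MulAut.mul_apply, hx]
  have hDinv : ∀ a b, ∀ x ∈ ⁅F a, F a⁆, φ b x ∈ ⁅F a, F a⁆ := fun a b x hx => by
    have h : (⁅F a, F a⁆).map (φ b).toMonoidHom ≤ ⁅F a, F a⁆ := by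
      rw [Subgroup.map_commutator]
      exact Subgroup.commutator_mono (Subgroup.map_le_iff_le_comap.mpr fun y hy => hFinv a b y hy)
        (Subgroup.map_le_iff_le_comap.mpr fun y hy => hFinv a b y hy)
    exact h ⟨x, hx, rfl⟩
  -- the generators
  set X : Set G := {y | ∃ i : Pair A, y ∈ fix2 φ i.1.1 i.1.2} with hX
  set T : Set G := ⋃ a : {a : A // a ≠ 1}, ((⁅F a.1, F a.1⁆ : Subgroup G) : Set G) with hT
  set L : Set G := T ∩ X with hL
  set K := Subgroup.closure L with hK
  have hXgen : Subgroup.closure X = ⊤ := top_le_iff.mp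
    ((le_closure_fixed φ hq hA hcomm he hcop (W := ⊤) fun _ _ _ => Subgroup.mem_top _).trans
      (Subgroup.closure_mono fun y hy => hy.2))
  have hTK : ∀ t ∈ T, t ∈ K := by
    intro t ht
    obtain ⟨a, ha⟩ := Set.mem_iUnion.mp ht
    refine ((le_closure_fixed φ hq hA hcomm he hcop (hDinv a.1)).trans
      (Subgroup.closure_mono ?_)) ha
    exact fun y hy => ⟨Set.mem_iUnion.mpr ⟨a, hy.1⟩, hy.2⟩
  have hXX : ∀ x ∈ X, ∀ y ∈ X, ⁅x, y⁆ ∈ T := by
    rintro x ⟨i, hi⟩ y ⟨j, hj⟩
    obtain ⟨c, hc, hci, hcj⟩ := pairs_meet hq hA he i j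
    exact Set.mem_iUnion.mpr ⟨⟨c, hc⟩, Subgroup.commutator_mem_commutator
      ((hF c x).mpr (fix2_closure hi hci)) ((hF c y).mpr (fix2_closure hj hcj))⟩
  have hconjK : ∀ y ∈ X, ∀ k ∈ K, y * k * y⁻¹ ∈ K := by
    intro y hy k hk
    induction hk using Subgroup.closure_induction with
    | mem l hl =>
        have h : y * l * y⁻¹ = ⁅y, l⁆ * l := by rw [commutatorElement_def]; group
        rw [h]
        exact mul_mem (hTK _ (hXX y hy l hl.2)) (Subgroup.subset_closure hl)
    | one => simp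
    | mul a b _ _ ha hb =>
        have h : y * (a * b) * y⁻¹ = (y * a * y⁻¹) * (y * b * y⁻¹) := by group
        rw [h]; exact mul_mem ha hb
    | inv a _ ha =>
        have h : y * a⁻¹ * y⁻¹ = (y * a * y⁻¹)⁻¹ := by group
        rw [h]; exact inv_mem ha
  have hKn : K.Normal := by
    rw [← Subgroup.normalizer_eq_top_iff, eq_top_iff, ← hXgen, Subgroup.closure_le]
    intro y hy
    rw [SetLike.mem_coe, Subgroup.mem_normalizer_iff']
    have he' : K.map (MulAut.conj y).toMonoidHom = K := by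
      refine Subgroup.eq_of_le_of_card_ge ?_ (le_of_eq ?_)
      · rintro _ ⟨k, hk, rfl⟩; exact hconjK y hy k hk
      · exact (Nat.card_congr (Subgroup.equivMapOfInjective _ _
          (MulAut.conj y).injective).toEquiv)
    intro g
    constructor
    · intro h
      have := hconjK y hy _ h
      simpa [mul_assoc] using this
    · intro h
      obtain ⟨k, hk, hk'⟩ := he'.symm ▸ h
      have : k = g * y := by
        have h' : y * k * y⁻¹ = y * g := hk'
        rw [mul_inv_eq_iff_eq_mul, mul_assoc] at h'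
        exact mul_left_cancel h'
      exact this ▸ hk
  have hGK : commutator G ≤ K := by
    rw [← QuotientGroup.ker_mk' K]
    have hcl : Subgroup.closure (QuotientGroup.mk' K '' X) = ⊤ := by
      rw [← MonoidHom.map_closure, hXgen, ← MonoidHom.range_eq_map,
        MonoidHom.range_eq_top.mpr (QuotientGroup.mk'_surjective K)]
    have hcm : IsMulCommutative (Subgroup.closure (QuotientGroup.mk' K '' X)) :=
      Subgroup.isMulCommutative_closure (by
        rintro _ ⟨x, hx, rfl⟩ _ ⟨y, hy, rfl⟩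
        rw [← commutatorElement_eq_one_iff_mul_comm, ← map_commutatorElement]
        exact (QuotientGroup.eq_one_iff _).mpr (hTK _ (hXX x hx y hy)))
    rw [commutator_def, Subgroup.commutator_le]
    intro a _ b _
    rw [MonoidHom.mem_ker, map_commutatorElement, commutatorElement_eq_one_iff_mul_comm]
    exact congrArg Subtype.val (hcm.is_comm.comm
      (⟨QuotientGroup.mk' K a, hcl.symm ▸ Subgroup.mem_top _⟩ :
        Subgroup.closure (QuotientGroup.mk' K '' X))
      ⟨QuotientGroup.mk' K b, hcl.symm ▸ Subgroup.mem_top _⟩)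
  -- the size of the set of letters
  have hTcard : Nat.card T ≤ q ^ 3 * m := by
    rw [hT]
    refine (Nat.card_le_card_of_surjective
      (fun x : Σ a : {a : A // a ≠ 1}, (⁅F a.1, F a.1⁆ : Subgroup G) =>
        (⟨(x.2 : G), Set.mem_iUnion.mpr ⟨x.1, x.2.2⟩⟩ : (⋃ a : {a : A // a ≠ 1},
          ((⁅F a.1, F a.1⁆ : Subgroup G) : Set G) : Set G))) ?_).trans ?_
    · rintro ⟨y, hy⟩
      obtain ⟨a, ha⟩ := Set.mem_iUnion.mp hy
      exact ⟨⟨a, y, ha⟩, rfl⟩
    · have : Fintype {a : A // a ≠ 1} := Fintype.ofFinite _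
      rw [Nat.card_sigma]
      refine (Finset.sum_le_sum (g := fun _ => m) fun a _ => hm a.1 a.2).trans ?_
      rw [Finset.sum_const, smul_eq_mul, Finset.card_univ, ← Nat.card_eq_fintype_card, ← hA]
      exact Nat.mul_le_mul_right m (Nat.card_le_card_of_injective _ Subtype.val_injective)
  have hLcard : Nat.card L ≤ q ^ 3 * m :=
    (Nat.card_mono (Set.toFinite T) Set.inter_subset_left).trans hTcard
  -- the automiser
  set C0 := Subgroup.centralizer (K : Set G) with hC0
  have hC0n : C0.Normal := inferInstance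
  have hLinv : ∀ a, ∀ l ∈ L, φ a l ∈ L := by
    rintro a l ⟨hl, i, hi⟩
    obtain ⟨c, hc⟩ := Set.mem_iUnion.mp hl
    refine ⟨Set.mem_iUnion.mpr ⟨c, hDinv c.1 a l hc⟩, i, ?_, ?_⟩
    · change φ i.1.1 (φ a l) = φ a l
      rw [← MulAut.mul_apply, ← map_mul, hcomm, map_mul, MulAut.mul_apply, show φ i.1.1 l = l from hi.1]
    · change φ i.1.2 (φ a l) = φ a l
      rw [← MulAut.mul_apply, ← map_mul, hcomm, map_mul, MulAut.mul_apply, show φ i.1.2 l = l from hi.2]
  have hC0eq : C0 = Subgroup.centralizer L := by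
    rw [hC0, hK, Subgroup.centralizer_closure]
  have hC0inv : ∀ a, ∀ x ∈ C0, φ a x ∈ C0 := fun a x hx => by
    rw [hC0eq, Subgroup.mem_centralizer_iff] at hx ⊢
    intro l hl
    have hback : φ a⁻¹ l ∈ L := hLinv a⁻¹ l hl
    have := congrArg (φ a) (hx _ hback)
    rw [map_mul, map_mul] at this
    simpa [map_inv, MulAut.inv_def] using this
  have himg : Nat.card ((QuotientGroup.mk' C0) '' X : Set (G ⧸ C0)) ≤ imageBound q m := by
    rcases isEmpty_or_nonempty L with hLe | hLne
    · have htriv : C0 = ⊤ := by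
        rw [hC0eq, eq_top_iff]
        intro x _
        rw [Subgroup.mem_centralizer_iff]
        exact fun l hl => (hLe.false ⟨l, hl⟩).elim
      have : Subsingleton (G ⧸ C0) := by
        rw [htriv]; exact QuotientGroup.subsingleton_quotient_top
      calc _ ≤ 1 := Finite.card_le_one_iff_subsingleton.mpr inferInstance
        _ ≤ _ := Nat.one_le_pow _ _ (Nat.succ_pos _)
    · let f : X → (L → T) := fun y l => ⟨⁅(y : G), (l : G)⁆, hXX y y.2 l l.2.2⟩
      let g : (L → T) → G ⧸ C0 := fun v =>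
        if h : ∃ y, f y = v then ((h.choose : X) : G) else 1
      have hsub : QuotientGroup.mk' C0 '' X ⊆ Set.range g := by
        rintro _ ⟨y, hy, rfl⟩
        have h : ∃ y', f y' = f ⟨y, hy⟩ := ⟨⟨y, hy⟩, rfl⟩
        refine ⟨f ⟨y, hy⟩, ?_⟩
        simp only [g, dif_pos h]
        rw [QuotientGroup.mk'_apply, QuotientGroup.eq, hC0eq, Subgroup.mem_centralizer_iff]
        intro l hl
        have h1 : ⁅((h.choose : X) : G), l⁆ = ⁅y, l⁆ :=
          congrArg Subtype.val (congrFun h.choose_spec ⟨l, hl⟩)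
        rw [commutatorElement_def, commutatorElement_def, mul_left_inj, mul_inv_eq_iff_eq_mul] at h1
        calc l * (((h.choose : X) : G)⁻¹ * y)
            = ((h.choose : X) : G)⁻¹ * (((h.choose : X) : G) * l) *
                ((h.choose : X) : G)⁻¹ * y := by group
          _ = _ := by rw [h1]; group
      calc _ ≤ Nat.card (Set.range g) := Nat.card_mono (Set.toFinite _) hsub
        _ ≤ Nat.card (L → T) := Nat.card_le_card_of_surjective _ Set.rangeFactorization_surjective
        _ = Nat.card T ^ Nat.card L := Nat.card_fun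
        _ ≤ (q ^ 3 * m + 1) ^ Nat.card L := Nat.pow_le_pow_left (hTcard.trans (Nat.le_succ _)) _
        _ ≤ _ := Nat.pow_le_pow_right (Nat.succ_pos _) hLcard
  obtain ⟨φQ, hφQ⟩ := quotient_exists φ hC0inv
  have hcopQ : (Nat.card A).Coprime (Nat.card (G ⧸ C0)) :=
    hcop.coprime_dvd_right (Subgroup.card_quotient_dvd_card _)
  have hQcard : Nat.card (G ⧸ C0) ≤ autoBound q m := by
    refine card_le_of_sylow _ _ fun p hp => ?_
    obtain ⟨P, hP⟩ := Cfsg.Agent.H20.External.exists_invariant_sylow φQ hcopQ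
      (Or.inl (Group.isSolvable_of_comm hcomm)) p
    refine ⟨P, ?_⟩
    obtain ⟨φP, hφP⟩ := restrict_exists φQ hP
    refine (pGroup_card_le hq hA hcomm he (P : Subgroup (G ⧸ C0)) φP P.isPGroup'
      (hcopQ.coprime_dvd_right (Subgroup.card_subgroup_dvd_card _))).trans ?_
    refine (Finset.prod_le_pow_card _ _ (imageBound q m) fun i _ => ?_).trans ?_
    · refine le_trans (Nat.card_le_card_of_injective
        (fun x => (⟨((x : (P : Subgroup (G ⧸ C0))) : G ⧸ C0), ?_⟩ :
          (QuotientGroup.mk' C0 '' X : Set (G ⧸ C0)))) ?_) himg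
      · obtain ⟨k, hk⟩ := QuotientGroup.mk_surjective ((x : (P : Subgroup (G ⧸ C0))) : G ⧸ C0)
        have h1 := (hφP _ _).symm.trans (congrArg Subtype.val x.2.1)
        have h2 := (hφP _ _).symm.trans (congrArg Subtype.val x.2.2)
        simp only [MonoidHom.id_apply, ← hk, hφQ] at h1 h2
        obtain ⟨c, hc, hcN⟩ := exists_fix2_lift hcomm φ hcop hC0inv
          (QuotientGroup.eq.mp h1.symm) (QuotientGroup.eq.mp h2.symm)
        exact ⟨c, ⟨i, hc⟩, by rw [← hk]; exact (QuotientGroup.eq.mpr hcN).symm⟩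
      · intro x y h
        have h' := congrArg Subtype.val h
        exact Subtype.ext (Subtype.ext h')
    · refine Nat.pow_le_pow_right (Nat.one_le_pow _ _ (Nat.succ_pos _)) ?_
      rw [Finset.card_univ, ← Nat.card_eq_fintype_card]
      calc Nat.card (Pair A) ≤ Nat.card (A × A) :=
            Nat.card_le_card_of_injective _ Subtype.val_injective
        _ = q ^ 6 := by rw [Nat.card_prod, hA, ← pow_add]
  -- the derived subgroup of `K` and its abelianisation
  have hcen : C0.subgroupOf K ≤ Subgroup.center K := fun z hz => by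
    rw [Subgroup.mem_center_iff]
    intro g
    exact Subtype.ext (Subgroup.mem_centralizer_iff.mp (Subgroup.mem_subgroupOf.mp hz) g g.2)
  have hidx : (Subgroup.center K).index ≤ autoBound q m := by
    refine le_trans (Nat.le_of_dvd Nat.card_pos ?_) hQcard
    refine (Subgroup.index_dvd_of_le hcen).trans ?_
    exact Subgroup.relIndex_dvd_index_of_normal C0 K
  have hab : 1 ≤ autoBound q m := Nat.one_le_pow _ _ (Nat.succ_pos _)
  have hK' : Nat.card (commutator K) ≤
      autoBound q m ^ (autoBound q m * (autoBound q m * autoBound q m) + 1) := by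
    refine (Nat.le_of_dvd ?_ (Subgroup.card_commutator_dvd_index_center_pow K)).trans ?_
    · exact pow_pos (Nat.pos_of_ne_zero Subgroup.index_ne_zero_of_finite) _
    refine (Nat.pow_le_pow_left hidx _).trans (Nat.pow_le_pow_right hab ?_)
    exact Nat.succ_le_succ (Nat.mul_le_mul hidx
      (card_commutatorSet_le.trans (Nat.mul_le_mul hidx hidx)))
  have hKab : Nat.card (K ⧸ commutator K) ≤ (m + 1) ^ (q ^ 3 * m) := by
    set L' : Set (K ⧸ commutator K) := (QuotientGroup.mk' (commutator K)) '' (K.subtype ⁻¹' L)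
    have hLK : Subgroup.closure L' = ⊤ := by
      rw [← MonoidHom.map_closure, show Subgroup.closure (K.subtype ⁻¹' L) = ⊤ from
        Subgroup.closure_closure_coe_preimage, ← MonoidHom.range_eq_map,
        MonoidHom.range_eq_top.mpr (QuotientGroup.mk'_surjective _)]
    refine (card_le_pow_of_closure ?_ L' hLK (m := m + 1) ?_).trans
      (Nat.pow_le_pow_right (Nat.succ_pos _) ?_)
    · exact fun x y => mul_comm (G := Abelianization K) x y
    · rintro _ ⟨l, ⟨hl, -⟩, rfl⟩
      obtain ⟨a, ha⟩ := Set.mem_iUnion.mp hl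
      refine le_trans ?_ ((hm a.1 a.2).trans (Nat.le_succ m))
      refine le_trans (Nat.le_of_dvd (orderOf_pos _) (orderOf_map_dvd _ _)) ?_
      rw [← Subgroup.orderOf_coe]
      exact Nat.le_of_dvd Nat.card_pos (Subgroup.orderOf_dvd_natCard _ ha)
    · refine le_trans (Nat.card_le_card_of_surjective
        (fun l : (K.subtype ⁻¹' L) => (⟨QuotientGroup.mk' _ l.1, l.1, l.2, rfl⟩ : L')) ?_)
        ((Nat.card_le_card_of_injective (fun l : (K.subtype ⁻¹' L) => (⟨(l.1 : G), l.2⟩ : L))
          fun x y h => Subtype.ext (Subtype.ext (by simpa using congrArg Subtype.val h))).trans hLcard)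
      rintro ⟨_, l, hl, rfl⟩
      exact ⟨⟨l, hl⟩, rfl⟩
  calc Nat.card (commutator G) ≤ Nat.card K := Nat.card_mono (Set.toFinite _) hGK
    _ = Nat.card (K ⧸ commutator K) * Nat.card (commutator K) :=
        Subgroup.card_eq_card_quotient_mul_card_subgroup _
    _ ≤ _ := by rw [mul_comm]; exact Nat.mul_le_mul hK' hKab

end Cfsg.Agent.H62.DB
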